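import Cfsg.Agent.RC.Df2
import Cfsg.Agent.RC.B0b
import Cfsg.Agent.S0119

/-! RC/B1 (S3860): the group `B = [F t, l]` is special with centre `C_B(l)` of order at most four. -/

set_option autoImplicit false
set_option linter.unusedSectionVars false

namespace Cfsg.Agent.RC

open Subgroup
open scoped commutatorElement

universe u

variable {G : Type u} [Group G] [Finite G]

variable {F : G → Subgroup G} {t l : G} {τ : MulAut G}

namespace B1Aux

theorem odd_fix (ho : Odd (orderOf l)) {e : G} (h : l * (l * e * l⁻¹) * l⁻¹ = e) : l * e * l⁻¹ = e := by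
  obtain ⟨m, hm⟩ := ho
  have h1 : Commute (l * l) e := by
    rw [Commute, SemiconjBy, ← mul_inv_eq_iff_eq_mul]
    exact Eq.trans (by group) h
  have h2 : (l * l) ^ (m + 1) = l := by
    rw [← pow_two, ← pow_mul, show 2 * (m + 1) = 2 * m + 1 + 1 by ring, pow_succ, ← hm, pow_orderOf_eq_one, one_mul]
  have h3 := h1.pow_left (m + 1)
  rw [h2] at h3
  rw [h3.eq, mul_inv_cancel_right]

theorem ττ (T : Ta F t τ) (x : G) : τ (τ x) = x := by rw [← MulAut.mul_apply, T.sq, MulAut.one_apply]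

theorem tau_inv (T : Ta F t τ) {A : Subgroup G} (hA : A ≤ F t) (cm : ∀ a ∈ A, ∀ b ∈ A, a * b = b * a)
    (hτ : ∀ a ∈ A, τ a ∈ A) {e : G} (he : e ∈ A) (h2 : e * e = 1) (h1 : e ≠ 1) : e = t ∨ τ e = e * t := by
  have a2 : τ e * τ e = 1 := by rw [← map_mul, h2, map_one]
  rcases T.uq (e * τ e) (hA (mul_mem he (hτ e he))) (by
    rw [mul_assoc, ← mul_assoc (τ e), cm _ (hτ e he) _ he, mul_assoc, a2, mul_one, h2]) (by
    rw [map_mul, ττ T, cm _ (hτ e he) _ he]) with h | h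
  · have : τ e = e := by rw [← mul_right_inj e, h, h2]
    exact .inl ((T.uq e (hA he) h2 this).resolve_left h1)
  · exact .inr (by rw [← h, ← mul_assoc, h2, one_mul])

theorem fix_inv (P : Pr t l) (T : Ta F t τ) {A : Subgroup G} (hA : A ≤ F t) (cm : ∀ a ∈ A, ∀ b ∈ A, a * b = b * a)
    (hτ : ∀ a ∈ A, τ a ∈ A) (hl : ∀ a ∈ A, l * a * l⁻¹ ∈ A) {e : G} (he : e ∈ A) (h2 : e * e = 1) :
    l * e * l⁻¹ = e := by
  have lt : l * t * l⁻¹ = t := mul_inv_eq_iff_eq_mul.2 (mem_cen.1 P.cm)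
  have tt : t * t = 1 := by rw [← pow_two, ← P.inv, pow_orderOf_eq_one]
  by_cases h1 : e = 1
  · simp [h1]
  rcases tau_inv T hA cm hτ he h2 h1 with h | h
  · rw [h, lt]
  have he' := hl e he
  have h2' : l * e * l⁻¹ * (l * e * l⁻¹) = 1 := by rw [conj_mul, h2]; simp
  rcases tau_inv T hA cm hτ he' h2' (by simpa using h1) with h' | h'
  · rw [← lt, mul_left_inj, mul_right_inj] at h'
    rw [h', lt]
  have tA : t ∈ A := by
    have := mul_mem he (hτ e he)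
    rwa [h, ← mul_assoc, h2, one_mul] at this
  generalize hf : l * e * l⁻¹ = f at he' h2' h'
  rcases T.uq (e * f) (hA (mul_mem he he')) (by
    rw [mul_assoc, ← mul_assoc f, cm _ he' _ he, mul_assoc, h2', mul_one, h2]) (by
    rw [map_mul, h, h', mul_assoc, ← mul_assoc t, cm _ tA _ he', mul_assoc, tt, mul_one]) with k | k
  · rw [← mul_right_inj e, k, h2]
  · have k1 : f = e * t := by rw [← k, ← mul_assoc, h2, one_mul]
    rw [← hf]
    refine odd_fix P.od ?_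
    rw [hf, k1, ← conj_mul, hf, lt, k1, mul_assoc, tt, mul_one]

theorem fix_ab (P : Pr t l) (T : Ta F t τ) {A : Subgroup G} (hA : A ≤ F t) (cm : ∀ a ∈ A, ∀ b ∈ A, a * b = b * a)
    (hτ : ∀ a ∈ A, τ a ∈ A) (hl : ∀ a ∈ A, l * a * l⁻¹ ∈ A) (k : ℕ) :
    ∀ a ∈ A, a ^ 2 ^ k = 1 → l * a * l⁻¹ = a := by
  induction k with
  | zero => intro a _ h; simp [show a = 1 by simpa using h]
  | succ k ih =>
    intro a ha h
    have h1 := ih (a * a) (mul_mem ha ha) (by rw [← pow_two, ← pow_mul, ← pow_succ', h])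
    have ha' := hl a ha
    rw [← conj_mul] at h1
    have hu := mul_mem (inv_mem ha) ha'
    have h2 : a⁻¹ * (l * a * l⁻¹) * (a⁻¹ * (l * a * l⁻¹)) = 1 := by
      rw [mul_assoc, ← mul_assoc (l * a * l⁻¹), cm _ ha' _ (inv_mem ha), mul_assoc a⁻¹, h1]; group
    have h3 := fix_inv P T hA cm hτ hl hu h2
    refine odd_fix P.od ?_
    generalize hu' : a⁻¹ * (l * a * l⁻¹) = w at h2 h3
    have h4 : l * a * l⁻¹ = a * w := by rw [← hu', mul_inv_cancel_left]
    rw [h4, ← conj_mul, h4, h3, mul_assoc, h2, mul_one]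

theorem spec {B : Subgroup G} (p2 : IsPGroup 2 B) (ho : Odd (orderOf l)) (hl : l ∈ nor B)
    (hBB : ⁅B, zpowers l⁆ = B) (hc : ∀ H : Subgroup B, H.Characteristic → IsMulCommutative H →
      (∀ h ∈ H, B.normalizerMonoidHom ⟨l, hl⟩ h ∈ H) → ∀ h ∈ H, l * h * l⁻¹ = h) :
    IsSpecial 2 B ∧ ∀ g : B, g ∈ center B ↔ (g : G) ∈ cen l := by
  haveI : Fact (Nat.Prime 2) := ⟨Nat.prime_two⟩
  set φ := B.normalizerMonoidHom ⟨l, hl⟩ with hφ
  have ap : ∀ (k : ℤ) (b : B), ((φ ^ k) b : G) = l ^ k * b * (l ^ k)⁻¹ := fun k b => by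
    rw [hφ, ← map_zpow]; rfl
  have fx : ∀ b : B, l * b * l⁻¹ = b → ∀ a ∈ zpowers φ, a b = b := by
    rintro b hb _ ⟨k, rfl⟩
    refine Subtype.ext ((ap k b).trans ?_)
    rw [(Commute.zpow_left (mul_inv_eq_iff_eq_mul.1 hb) k).eq, mul_inv_cancel_right]
  have h := S0119.result p2 (zpowers φ) (by
    rw [Nat.card_zpowers]
    refine Nat.Coprime.coprime_dvd_left ((orderOf_map_dvd _ _).trans (orderOf_coe (⟨l, hl⟩ : nor B)).symm.dvd) ?_
    exact (Nat.coprime_two_right).2 ho) (by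
    rw [eq_top_iff, ← map_le_map_iff_of_injective B.subtype_injective, ← MonoidHom.range_eq_map, range_subtype]
    nth_rw 1 [← hBB]
    rw [commutator_le]
    rintro b hb _ ⟨k, rfl⟩
    refine ⟨_, subset_closure ⟨⟨b, hb⟩⁻¹, φ ^ k, ⟨k, rfl⟩, rfl⟩, ?_⟩
    simp only [coe_subtype, coe_mul, ap, commutatorElement_def, inv_inv, coe_inv, mul_assoc])
    fun H hH cm a ha h hh => fx h (hc H hH cm (fun h hh => characteristic_iff_le_comap.1 hH φ hh) h hh) a ha
  refine ⟨h.1, fun g => (h.2 g).trans ⟨fun e => ?_, fun e => fx g (mul_inv_eq_iff_eq_mul.2 (mem_cen.1 e).symm)⟩⟩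
  have := congrArg Subtype.val (e φ (mem_zpowers φ))
  exact mem_cen.2 (mul_inv_eq_iff_eq_mul.1 this).symm

end B1Aux

open B1Aux in
theorem b1 (C : C1 F) (P : Pr t l) : Sp F t l := by
  haveI : Fact (Nat.Prime 2) := ⟨Nat.prime_two⟩
  obtain ⟨τ, T⟩ := C.tau t P.inv
  have C0 := C.toC0
  have hB := B_le C0 P
  have p2 : IsPGroup 2 (Bt F t l) := (C0.p2 t P.inv).to_le hB
  have hl : l ∈ nor (Bt F t l) := nBc C0 P ⟨P.cm, mem_cen.2 rfl⟩
  have hτ := Btau C0 P T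
  let ψ : MulAut (Bt F t l) :=
    { toFun := fun b => ⟨τ b, (hτ b).2 b.2⟩
      invFun := fun b => ⟨τ b, (hτ b).2 b.2⟩
      left_inv := fun b => Subtype.ext (ττ T b)
      right_inv := fun b => Subtype.ext (ττ T b)
      map_mul' := fun a b => Subtype.ext (map_mul τ _ _) }
  obtain ⟨⟨-, s1, s2⟩, s3⟩ := spec p2 P.od hl (BB C0 P) fun H hH cm hn h hh => by
    obtain ⟨k, hk⟩ := p2 h
    refine fix_ab P T (A := H.map (Bt F t l).subtype) ((map_subtype_le _).trans hB) ?_ ?_ ?_ k h ⟨h, hh, rfl⟩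
      (congrArg Subtype.val hk)
    · rintro _ ⟨a, ha, rfl⟩ _ ⟨b, hb, rfl⟩
      exact congrArg (fun x : H => ((x : Bt F t l) : G)) (mul_comm' (⟨a, ha⟩ : H) ⟨b, hb⟩)
    · rintro _ ⟨a, ha, rfl⟩
      exact ⟨ψ a, characteristic_iff_le_comap.1 hH ψ ha, rfl⟩
    · rintro _ ⟨a, ha, rfl⟩
      exact ⟨_, hn a ha, rfl⟩
  have mY : ∀ b : Bt F t l, b ∈ center (Bt F t l) → (b : G) ∈ Yt F t l := fun b hb => ⟨b.2, (s3 b).1 hb⟩
  have el : ∀ y ∈ Yt F t l, y * y = 1 := fun y hy => by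
    have := H3.pow_eq_one_of_mem_commutator s2.le (n := 2) (fun x => s1 ▸ H3.pow_mem_frattini p2 x)
      (z := ⟨y, hy.1⟩) (s2 ▸ (s3 _).2 hy.2)
    rw [← pow_two]
    exact congrArg Subtype.val this
  have cz : ∀ b, b ∈ Yt F t l ↔ b ∈ Bt F t l ∧ b ∈ Cs (Bt F t l) := fun b => and_congr_right fun hb =>
    (s3 ⟨b, hb⟩).symm.trans ⟨fun h a ha => congrArg Subtype.val (mem_center_iff.1 h ⟨a, ha⟩),
      fun h => mem_center_iff.2 fun a => Subtype.ext (h a a.2)⟩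
  have hτY : ∀ y ∈ Yt F t l, τ y ∈ Yt F t l := fun y hy =>
    mY (ψ ⟨y, hy.1⟩) (characteristic_iff_le_comap.1 inferInstance ψ ((s3 _).2 hy.2))
  have tY : t ∈ Yt F t l := by
    haveI := (nontrivial_iff_ne_bot _).2 (Bne C0 P)
    haveI := p2.center_nontrivial
    obtain ⟨⟨e, he⟩, e1⟩ := exists_ne (1 : center (Bt F t l))
    have h1 := mY e he
    rcases tau_inv T (A := Yt F t l) (inf_le_left.trans hB) (fun a ha b hb => (((cz b).1 hb).2 a ha.1)) hτY h1 (el _ h1)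
      (fun h => e1 (Subtype.ext (Subtype.ext h))) with h | h
    · rwa [h] at h1
    · have := mul_mem h1 (hτY _ h1)
      rwa [h, ← mul_assoc, el _ h1, one_mul] at this
  refine ⟨cz, el, ?_, tY, fun a ha b hb => mY ⁅(⟨a, ha⟩ : Bt F t l), (⟨b, hb⟩ : Bt F t l)⁆
    (s2.le (commutator_mem_commutator (mem_top _) (mem_top _))),
    fun a ha => ?_, fun y hy => ?_⟩
  · have c4 := e4 T _ (inf_le_left.trans hB) el hτY
    obtain ⟨k, hk⟩ := (p2.to_le (inf_le_left : Yt F t l ≤ _)).exists_card_eq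
    have c1 : Nat.card (Yt F t l) ≠ 1 := fun h => by
      have := (card_eq_one.1 h ▸ tY : t ∈ (⊥ : Subgroup G))
      have h2 := P.inv
      rw [mem_bot.1 this, orderOf_one] at h2
      omega
    rw [hk] at c4 c1 ⊢
    rcases k with _ | _ | _ | k
    · exact absurd rfl c1
    · exact .inl rfl
    · exact .inr rfl
    · have := Nat.two_pow_pos k
      rw [pow_succ, pow_succ, pow_succ] at c4
      omega
  · rw [← pow_two]
    exact mY (⟨a, ha⟩ ^ 2) (s1 ▸ H3.pow_mem_frattini p2 _)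
  · rw [← map_subtype_commutator]
    exact ⟨⟨y, hy.1⟩, s2 ▸ (s3 _).2 hy.2, rfl⟩

end Cfsg.Agent.RC
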