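import Cfsg.Agent.RC.Df2
import Cfsg.Agent.RC.B1
import Cfsg.Agent.RC.B0a
import Cfsg.Agent.RC.B0b

/-! RC/B3 (S3860). PROOF: hom: φ(b)=[x,b]∈Y=Z(B) is a hom B→Y with φ(l b l⁻¹)=φ(b), so kills [B,l]=B. g1: y∈Y_u=Z(B_u) ⇒ B_u≤F y (Fsyl) ⇒ B_u=[B_u,l]≤B_y. Ytau: Y=Z(B), Btau. nY likewise. cB: C=F t⊓Cs B is l-invariant, [C,l]≤B∩Cs B=Y so [C,l,l]=1, coprime. tl: τ l=b0 l b0⁻¹ (lconj, od), B/Y abelian. Pu: trivial. -/

set_option autoImplicit false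

namespace Cfsg.Agent.RC

open Subgroup

universe u

variable {G : Type u} [Group G] [Finite G]

variable {F : G → Subgroup G} {t l : G} {τ : MulAut G}

theorem b3_kill {g m w : G} (h : g * m * g⁻¹ = w * m) (hc : w * m = m * w) (h2 : w * w = 1)
    (ho : Odd (orderOf m)) : w = 1 := by
  obtain ⟨n, hn⟩ := ho
  have h1 : (w * m) ^ orderOf m = 1 := by rw [← h, conj_pow, pow_orderOf_eq_one, mul_one, mul_inv_cancel]
  rw [Commute.mul_pow hc, pow_orderOf_eq_one, mul_one, hn, pow_succ, pow_mul, sq, h2, one_pow, one_mul] at h1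
  exact h1

theorem b3_lB (C : C1 F) (P : Pr t l) : l ∈ nor (Bt F t l) := nBc C.toC0 P ⟨P.cm, mem_cen.2 rfl⟩

theorem b3_cs {B : Subgroup G} {g c : G} (hg : g ∈ nor B) (hc : c ∈ Cs B) : g * c * g⁻¹ ∈ Cs B := by
  refine mem_centralizer_iff.2 fun m hm => ?_
  have h1 : g⁻¹ * m * g⁻¹⁻¹ ∈ B := (mem_normalizer_iff.1 ((nor B).inv_mem hg) m).1 hm
  have h2 := mem_centralizer_iff.1 hc _ h1
  calc m * (g * c * g⁻¹) = g * ((g⁻¹ * m * g⁻¹⁻¹) * c) * g⁻¹ := by group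
    _ = g * (c * (g⁻¹ * m * g⁻¹⁻¹)) * g⁻¹ := by rw [h2]
    _ = g * c * g⁻¹ * m := by group

theorem b3_zp {x m : G} (hx : x ∈ cen l) (hm : m ∈ zpowers l) : x * m = m * x := by
  obtain ⟨k, rfl⟩ := mem_zpowers_iff.1 hm
  exact (Commute.zpow_right (mem_cen.1 hx) k).eq

theorem hom (C : C1 F) (P : Pr t l) (x : G) (hx : x ∈ cen l) (hn : x ∈ nor (Bt F t l))
    (h : ∀ b ∈ Bt F t l, x * b * x⁻¹ * b⁻¹ ∈ Yt F t l) : x ∈ Cs (Bt F t l) := by
  have S := b1 C P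
  have key : Bt F t l ≤ cen x := by
    rw [← BB C.toC0 P, commutator_le]
    intro b hb m hm
    have hy := h b hb
    obtain ⟨y, ey⟩ : ∃ y, y = x * b * x⁻¹ * b⁻¹ := ⟨_, rfl⟩
    rw [← ey] at hy
    have e1 : x * b = y * b * x := by rw [ey]; group
    have e2 : x * m = m * x := b3_zp hx hm
    have e3 : b * y = y * b := mem_centralizer_iff.1 ((S.cz y).1 hy).2 b hb
    have e4 : y * m = m * y := b3_zp hy.2 hm
    have c1 : Commute y b := e3.symm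
    have c2 : Commute y m := e4
    have c3 : Commute y (b * m * b⁻¹) := (c1.mul_right c2).mul_right c1.inv_right
    have f1 : x * b * x⁻¹ = y * b := by rw [e1]; group
    have f2 : x * m * x⁻¹ = m := by rw [e2]; group
    rw [mem_cen, commutatorElement_def, eq_comm, ← mul_inv_eq_iff_eq_mul]
    calc x * (b * m * b⁻¹ * m⁻¹) * x⁻¹
        = (x * b * x⁻¹) * (x * m * x⁻¹) * (x * b * x⁻¹)⁻¹ * (x * m * x⁻¹)⁻¹ := by group
      _ = y * (b * m * b⁻¹) * y⁻¹ * m⁻¹ := by rw [f1, f2]; group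
      _ = b * m * b⁻¹ * m⁻¹ := by rw [c3.eq]; group
  exact mem_centralizer_iff.2 fun b hb => mem_cen.1 (key hb)

theorem Pu (P : Pr t l) {u : G} (hu : orderOf u = 2) (h : u ∈ cen l) : Pr u l :=
  ⟨hu, P.pr, P.od, mem_cen.2 (mem_cen.1 h).symm⟩

theorem g1 (C : C1 F) (P : Pr t l) {y : G} (hy : orderOf y = 2) (h : y ∈ Yt F t l) : Bt F t l ≤ Bt F y l := by
  have S := b1 C P
  have h1 : Bt F t l ≤ cen y := fun b hb => mem_cen.2 (mem_centralizer_iff.1 ((S.cz y).1 h).2 b hb)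
  have h2 : Bt F t l ≤ F y := Fsyl C.toC0 hy _ ((C.p2 t P.inv).to_le (B_le C.toC0 P)) h1
  calc Bt F t l = ⁅Bt F t l, zpowers l⁆ := (BB C.toC0 P).symm
    _ ≤ Bt F y l := commutator_mono h2 le_rfl

theorem Ytau (C : C1 F) (P : Pr t l) (T : Ta F t τ) : ∀ b, τ b ∈ Yt F t l ↔ b ∈ Yt F t l := by
  have S := b1 C P
  have hB := Btau C.toC0 P T
  intro b
  rw [S.cz, S.cz, hB]
  refine and_congr_right fun _ => ⟨fun hc => ?_, fun hc => ?_⟩
  · refine mem_centralizer_iff.2 fun m hm => τ.injective ?_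
    rw [map_mul, map_mul]
    exact mem_centralizer_iff.1 hc _ ((hB m).2 hm)
  · refine mem_centralizer_iff.2 fun m hm => ?_
    obtain ⟨m', rfl⟩ := τ.surjective m
    rw [← map_mul, ← map_mul, mem_centralizer_iff.1 hc m' ((hB m').1 hm)]

theorem nY (C : C1 F) (P : Pr t l) : nor (Bt F t l) ≤ nor (Yt F t l) := by
  have S := b1 C P
  intro g hg
  refine Subgroup.mem_normalizer_fintype (S := ((Yt F t l : Subgroup G) : Set G)) fun y hy => ?_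
  have hy' := (S.cz y).1 hy
  exact (S.cz _).2 ⟨(mem_normalizer_iff.1 hg y).1 hy'.1, b3_cs hg hy'.2⟩

theorem cB (C : C1 F) (P : Pr t l) : F t ⊓ Cs (Bt F t l) ≤ cen l := by
  have S := b1 C P
  intro c hc
  have h1 : c * l * c⁻¹ * l⁻¹ ∈ Bt F t l := commutator_mem_commutator hc.1 (mem_zpowers l)
  have h2 : c * l * c⁻¹ * l⁻¹ ∈ Cs (Bt F t l) := by
    have := (Cs (Bt F t l)).mul_mem hc.2 (b3_cs (b3_lB C P) ((Cs (Bt F t l)).inv_mem hc.2))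
    rwa [← mul_assoc, ← mul_assoc] at this
  have hy := (S.cz _).2 ⟨h1, h2⟩
  have := b3_kill (g := c) (m := l) (by group) (mem_cen.1 hy.2) (S.el _ hy) P.od
  rw [mem_cen, ← mul_inv_eq_iff_eq_mul, ← mul_inv_eq_one]
  exact this

theorem tl (C : C1 F) (P : Pr t l) (T : Ta F t τ) :
    ∀ b ∈ Bt F t l, τ (l * b * l⁻¹) * (l * τ b * l⁻¹)⁻¹ ∈ Yt F t l := by
  have S := b1 C P
  have ho : orderOf (τ l) = orderOf l := τ.orderOf_eq l
  have P' : Pr t (τ l) := ⟨P.inv, ho ▸ P.pr, ho ▸ P.od, mem_cen.2 (by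
    conv_lhs => rw [← T.fix]
    conv_rhs => rw [← T.fix]
    rw [← map_mul, ← map_mul, mem_cen.1 P.cm])⟩
  obtain ⟨a, ha, ea⟩ := lconj C.toC0 P P' (T.od l P.cm)
  intro b hb
  have hβ := (Btau C.toC0 P T b).2 hb
  rw [map_mul, map_mul, map_inv, ea]
  generalize τ b = β at hβ
  have hγ : l * β * l⁻¹ ∈ Bt F t l := (mem_normalizer_iff.1 (b3_lB C P) β).1 hβ
  have h1 := S.cm _ ((Bt F t l).inv_mem ha) β hβ
  obtain ⟨y, ey⟩ : ∃ y, y = a⁻¹ * β * a⁻¹⁻¹ * β⁻¹ := ⟨_, rfl⟩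
  rw [← ey] at h1
  have e1 : l * y = y * l := (mem_cen.1 h1.2).symm
  have e2 : a * y = y * a := mem_centralizer_iff.1 ((S.cz y).1 h1).2 a ha
  have h2 := (Yt F t l).mul_mem h1 (S.cm a ha _ hγ)
  have e : a * l * a⁻¹ * β * (a * l * a⁻¹)⁻¹ * (l * β * l⁻¹)⁻¹ =
      y * (a * (l * β * l⁻¹) * a⁻¹ * (l * β * l⁻¹)⁻¹) := by
    calc _ = a * (l * y) * (β * l⁻¹ * a⁻¹ * (l * β * l⁻¹)⁻¹) := by rw [ey]; group
      _ = (a * y) * (l * β * l⁻¹ * a⁻¹ * (l * β * l⁻¹)⁻¹) := by rw [e1]; group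
      _ = _ := by rw [e2]; group
  rw [e]
  exact h2

theorem fpf (C : C1 F) (P : Pr t l) (i : ℕ) (hi : l ^ i ≠ 1) :
    ∀ b ∈ Bt F t l, l ^ i * b * (l ^ i)⁻¹ * b⁻¹ ∈ Yt F t l → b ∈ Yt F t l := by
  have S := b1 C P
  intro b hb hy
  obtain ⟨y, ey⟩ : ∃ y, y = l ^ i * b * (l ^ i)⁻¹ * b⁻¹ := ⟨_, rfl⟩
  rw [← ey] at hy
  have e2 : b * y = y * b := mem_centralizer_iff.1 ((S.cz y).1 hy).2 b hb
  have hod : Odd (orderOf (l ^ i)) := Odd.of_dvd_nat P.od (orderOf_pow_dvd i)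
  have h1 : y = 1 := b3_kill (g := b⁻¹) (m := l ^ i) (by
      calc b⁻¹ * l ^ i * b⁻¹⁻¹ = b⁻¹ * (y * b) * l ^ i := by rw [ey]; group
        _ = y * l ^ i := by rw [← e2]; group)
    (b3_zp hy.2 (pow_mem (mem_zpowers l) i)) (S.el y hy) hod
  have hc : Commute (l ^ i) b := by
    rw [h1] at ey
    have : l ^ i * b = 1 * (b * l ^ i) := by rw [ey]; group
    rwa [one_mul] at this
  have hco : i.Coprime (orderOf l) :=
    ((Nat.Prime.coprime_iff_not_dvd P.pr).2 fun d => hi (orderOf_dvd_iff_pow_eq_one.1 d)).symm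
  obtain ⟨j, hj⟩ := exists_pow_eq_self_of_coprime hco
  refine ⟨hb, mem_cen.2 ?_⟩
  have := (hc.pow_left j).eq
  rw [hj] at this
  exact this.symm

end Cfsg.Agent.RC
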