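import Cfsg.Agent.RC.Df2
import Cfsg.Agent.RC.B3

/-! RC/B2a (S3860): the preimage of the fixed points of `τ` on `B / Y`. -/

set_option autoImplicit false

namespace Cfsg.Agent.RC

open Subgroup

universe u

variable {G : Type u} [Group G] [Finite G]

variable {F : G → Subgroup G} {t l : G} {τ : MulAut G}

namespace B2aAux

omit [Finite G] in
theorem card_list (D : Subgroup G) (L : List G) (h : ∀ x ∈ D, x ∈ L) : Nat.card D ≤ L.length := by
  classical
  have h1 : (D : Set G) ⊆ (L.toFinset : Set G) := fun x hx => by simpa using h x hx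
  have h2 := Set.ncard_le_ncard h1 (Finset.finite_toSet _)
  rw [Set.ncard_coe_finset] at h2
  exact le_trans (le_trans (le_of_eq (Nat.card_coe_set_eq _)) h2) (List.toFinset_card_le L)

omit [Finite G] in
theorem swp {x y t : G} (tt : t * t = 1) (hx : x * x = t) (hy : y * y = t) (hxy : x * y * (x * y) = t)
    (cy : y * t = t * y) : y * x = x * y * t := by
  have h1 : x * (y * x) * y = x * (x * y * t) * y := by
    calc x * (y * x) * y = x * y * (x * y) := by group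
      _ = t := hxy
      _ = t * (t * t) := by rw [tt, mul_one]
      _ = x * x * (y * y * t) := by rw [hx, hy]
      _ = x * x * (y * (y * t)) := by group
      _ = x * x * (y * (t * y)) := by rw [cy]
      _ = x * (x * y * t) * y := by group
  exact mul_left_cancel (mul_right_cancel h1)

omit [Finite G] in
theorem idx (A B : Subgroup G) (h : A ≤ B) : Nat.card (B ⧸ A.subgroupOf B) * Nat.card A = Nat.card B := by
  rw [← Nat.card_congr (subgroupOfEquivOfLe h).toEquiv]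
  exact (card_eq_card_quotient_mul_card_subgroup _).symm

end B2aAux

open B2aAux

theorem u8 (D : Subgroup G) (t : G) (h : ∀ a ∈ D, a = 1 ∨ a = t ∨ a * a = t) (ht : orderOf t = 2)
    (hc : D ≤ cen t) : Nat.card D ≤ 8 := by
  have tt : t * t = 1 := by rw [← pow_two, ← ht, pow_orderOf_eq_one]
  have t1 : t ≠ 1 := by
    rintro rfl
    simp at ht
  have ct : ∀ x ∈ D, x * t = t * x := fun x hx => mem_cen.1 (hc hx)
  have nt : ∀ x ∈ D, ∀ y ∈ D, x * x = t → y ≠ x → y ≠ x * t → x * y * (x * y) = t := by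
    intro x hx y hy hxx h1 h2
    rcases h _ (D.mul_mem hx hy) with e | e | e
    · exact absurd (mul_left_cancel (a := x) (by rw [e, ← mul_assoc, hxx, tt])) h2
    · exact absurd (mul_left_cancel (a := x) (by rw [e, hxx])) h1
    · exact e
  by_contra hlt
  have ex : ∀ L : List G, L.length ≤ 8 → ∃ x ∈ D, x ∉ L := by
    intro L hL
    by_contra hn
    push Not at hn
    exact hlt (le_trans (card_list D L hn) hL)
  obtain ⟨a, ha, ha'⟩ := ex [1, t] (by simp)
  obtain ⟨b, hb, hb'⟩ := ex [1, t, a, a * t] (by simp)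
  obtain ⟨c, hc1, hc'⟩ := ex [1, t, a, a * t, b, b * t, a * b, a * b * t] (by simp)
  simp only [List.mem_cons, List.not_mem_nil, or_false, not_or] at ha' hb' hc'
  have aa : a * a = t := ((h a ha).resolve_left ha'.1).resolve_left ha'.2
  have bb : b * b = t := ((h b hb).resolve_left hb'.1).resolve_left hb'.2.1
  have cc : c * c = t := ((h c hc1).resolve_left hc'.1).resolve_left hc'.2.1
  have ab := nt a ha b hb aa hb'.2.2.1 hb'.2.2.2
  have ac := nt a ha c hc1 aa hc'.2.2.1 hc'.2.2.2.1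
  have bc := nt b hb c hc1 bb hc'.2.2.2.2.1 hc'.2.2.2.2.2.1
  have abc := nt (a * b) (D.mul_mem ha hb) c hc1 ab hc'.2.2.2.2.2.2.1 hc'.2.2.2.2.2.2.2
  have e1 := swp tt aa bb ab (ct b hb)
  have e2 := swp tt aa cc ac (ct c hc1)
  have e3 := swp tt aa bc (by rw [← mul_assoc a b c]; exact abc) (ct _ (D.mul_mem hb hc1))
  apply t1
  apply mul_left_cancel (a := a * (b * c))
  rw [← e3, mul_one]
  calc b * c * a = b * (c * a) := by group
    _ = b * a * c * t := by rw [e2]; group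
    _ = a * b * (t * c) * t := by rw [e1]; group
    _ = a * b * (c * t) * t := by rw [ct c hc1]
    _ = a * (b * c) * (t * t) := by group
    _ = a * (b * c) := by rw [tt, mul_one]

theorem b2a (C : C1 F) (P : Pr t l) (T : Ta F t τ) : ∃ A, Ax F t l τ A := by
  have S := b1 C P
  have YB : ∀ y ∈ Yt F t l, y ∈ Bt F t l := fun y hy => hy.1
  have Yc : ∀ y ∈ Yt F t l, ∀ b ∈ Bt F t l, b * y = y * b := fun y hy b hb =>
    (mem_centralizer_iff.1 ((S.cz y).1 hy).2) b hb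
  have tB : ∀ b ∈ Bt F t l, τ b ∈ Bt F t l := fun b hb => (Btau C.toC0 P T b).2 hb
  have tY : ∀ b ∈ Yt F t l, τ b ∈ Yt F t l := fun b hb => (Ytau C P T b).2 hb
  have tt : ∀ b, τ (τ b) = b := fun b => by
    rw [← MulAut.mul_apply, T.sq, MulAut.one_apply]
  have dB : ∀ b ∈ Bt F t l, b⁻¹ * τ b ∈ Bt F t l := fun b hb => mul_mem (inv_mem hb) (tB b hb)
  have td : ∀ b, τ (b⁻¹ * τ b) = (b⁻¹ * τ b)⁻¹ := fun b => by
    rw [map_mul, map_inv, tt]; group
  have dd : ∀ a b : G, (a⁻¹ * b)⁻¹ * τ (a⁻¹ * b) =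
      (a⁻¹ * b)⁻¹ * (a⁻¹ * τ a)⁻¹ * (a⁻¹ * b) * (b⁻¹ * τ b) := fun a b => by
    rw [map_mul, map_inv]; group
  have BF : ∀ b ∈ Bt F t l, b ∈ F t := fun b hb => B_le C.toC0 P hb
  let A : Subgroup G :=
    { carrier := {b | b ∈ Bt F t l ∧ b⁻¹ * τ b ∈ Yt F t l}
      one_mem' := ⟨one_mem _, by simpa using one_mem (Yt F t l)⟩
      mul_mem' := by
        rintro a b ⟨ha, ha'⟩ ⟨hb, hb'⟩
        refine ⟨mul_mem ha hb, ?_⟩
        have e : (a * b)⁻¹ * τ (a * b) = b⁻¹ * (a⁻¹ * τ a) * τ b := by rw [map_mul]; group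
        rw [e, Yc _ ha' _ (inv_mem hb), mul_assoc]
        exact mul_mem ha' hb'
      inv_mem' := by
        rintro a ⟨ha, ha'⟩
        refine ⟨inv_mem ha, ?_⟩
        have e : a⁻¹⁻¹ * τ a⁻¹ = a * (a⁻¹ * τ a)⁻¹ * a⁻¹ := by rw [map_inv]; group
        rw [e, Yc _ (inv_mem ha') _ ha, mul_inv_cancel_right]
        exact inv_mem ha' }
  have mA : ∀ b, b ∈ A ↔ b ∈ Bt F t l ∧ b⁻¹ * τ b ∈ Yt F t l := fun b => Iff.rfl
  have YA : Yt F t l ≤ A := fun y hy => (mA y).2 ⟨YB y hy, mul_mem (inv_mem hy) (tY y hy)⟩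
  have AB : A ≤ Bt F t l := fun a ha => ((mA a).1 ha).1
  have im : ∀ b ∈ Bt F t l, b⁻¹ * τ b ∈ A := fun b hb => by
    refine (mA _).2 ⟨dB b hb, ?_⟩
    rw [td]
    exact S.sq _ (inv_mem (dB b hb))
  have t1 : t ≠ 1 := by
    intro e
    have := P.inv
    rw [e] at this
    simp at this
  refine ⟨A, mA, ?_, ?_, ?_, im, ?_, ?_⟩
  · refine lt_of_le_of_ne YA fun e => t1 ?_
    have BY : ∀ b ∈ Bt F t l, b ∈ Yt F t l := fun b hb => by
      have h1 : b⁻¹ * τ b ∈ Yt F t l := by rw [e]; exact im b hb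
      rw [e]
      exact (mA b).2 ⟨hb, h1⟩
    have h2 : ⁅Bt F t l, Bt F t l⁆ ≤ ⊥ := by
      rw [commutator_le]
      intro a ha b hb
      rw [mem_bot, commutatorElement_eq_one_iff_mul_comm]
      exact Yc b (BY b hb) a ha
    exact mem_bot.1 (h2 (S.dr S.tY))
  · refine mem_normalizer_fintype fun b hb => ?_
    obtain ⟨hb, hb'⟩ := (mA b).1 hb
    have hl : l * b * l⁻¹ ∈ Bt F t l :=
      ((mem_normalizer_iff.1 (nBc C.toC0 P ⟨P.cm, mem_cen.2 rfl⟩)) b).1 hb
    refine (mA _).2 ⟨hl, ?_⟩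
    have hy := tl C P T b hb
    have e : (l * b * l⁻¹)⁻¹ * τ (l * b * l⁻¹) =
        (l * b * l⁻¹)⁻¹ * (τ (l * b * l⁻¹) * (l * τ b * l⁻¹)⁻¹) * (l * b * l⁻¹) * (l * (b⁻¹ * τ b) * l⁻¹) := by
      group
    rw [e, Yc _ hy _ (inv_mem hl), inv_mul_cancel_right, ← mem_cen.1 hb'.2, mul_inv_cancel_right]
    exact mul_mem hy hb'
  · intro b hb
    obtain ⟨hb, hb'⟩ := (mA b).1 hb
    refine (mA _).2 ⟨tB b hb, ?_⟩
    have e : (τ b)⁻¹ * τ (τ b) = (b⁻¹ * τ b)⁻¹ := by rw [tt]; group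
    rw [e]
    exact inv_mem hb'
  · have DA : Bt F t l ⊓ Fx τ ≤ A := fun a ha => (mA a).2 ⟨ha.1, by
      rw [mem_Fx.1 ha.2, inv_mul_cancel]; exact one_mem _⟩
    have hD : Nat.card ↥(Bt F t l ⊓ Fx τ) ≤ 8 := by
      refine u8 _ t (fun a ha => ?_) P.inv (fun a ha => mem_cen.2 (Yc t S.tY a ha.1))
      have fa : τ a = a := mem_Fx.1 ha.2
      rcases T.uq (a * a) (BF _ (mul_mem ha.1 ha.1)) (S.el _ (S.sq a ha.1)) (by rw [map_mul, fa]) with e | e
      · rcases T.uq a (BF a ha.1) e fa with e' | e'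
        · exact Or.inl e'
        · exact Or.inr (Or.inl e')
      · exact Or.inr (Or.inr e)
    have d1 : ∀ a ∈ A, a⁻¹ * τ a ∈ ({1, t} : Set G) := fun a ha => by
      obtain ⟨ha, ha'⟩ := (mA a).1 ha
      refine T.uq _ (BF _ (dB a ha)) (S.el _ ha') ?_
      rw [td]
      exact inv_eq_of_mul_eq_one_right (S.el _ ha')
    have hq : Nat.card (A ⧸ (Bt F t l ⊓ Fx τ).subgroupOf A) ≤ Nat.card ({1, t} : Set G) := by
      refine Nat.card_le_card_of_injective
        (fun q => ⟨(q.out : G)⁻¹ * τ (q.out : G), d1 _ q.out.2⟩) fun q q' e => ?_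
      have e' : (q.out : G)⁻¹ * τ (q.out : G) = (q'.out : G)⁻¹ * τ (q'.out : G) := congrArg Subtype.val e
      rw [← QuotientGroup.out_eq' q, ← QuotientGroup.out_eq' q', QuotientGroup.eq, mem_subgroupOf]
      have hg : ((q.out : G)⁻¹ * q'.out) ∈ Bt F t l := mul_mem (inv_mem (AB q.out.2)) (AB q'.out.2)
      refine ⟨hg, mem_Fx.2 ?_⟩
      have h3 := dd q.out q'.out
      rw [Yc _ (inv_mem ((mA _).1 q.out.2).2) _ (inv_mem hg), inv_mul_cancel_right, e', inv_mul_cancel] at h3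
      exact (inv_mul_eq_one.1 h3).symm
    rw [Nat.card_coe_set_eq, Set.ncard_pair t1.symm] at hq
    rw [← idx _ _ DA]
    exact le_trans (Nat.mul_le_mul hq hD) (by norm_num)
  · have hq : Nat.card (Bt F t l ⧸ A.subgroupOf (Bt F t l)) ≤ Nat.card (A ⧸ (Yt F t l).subgroupOf A) := by
      refine Nat.card_le_card_of_injective
        (fun q => QuotientGroup.mk ⟨(q.out : G)⁻¹ * τ (q.out : G), im _ q.out.2⟩) fun q q' e => ?_
      have e' : ((q.out : G)⁻¹ * τ (q.out : G))⁻¹ * ((q'.out : G)⁻¹ * τ (q'.out : G)) ∈ Yt F t l :=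
        mem_subgroupOf.1 (QuotientGroup.eq.1 e)
      rw [← QuotientGroup.out_eq' q, ← QuotientGroup.out_eq' q', QuotientGroup.eq, mem_subgroupOf]
      have hg : ((q.out : G)⁻¹ * q'.out) ∈ Bt F t l := mul_mem (inv_mem q.out.2) q'.out.2
      refine (mA _).2 ⟨hg, ?_⟩
      have h4 := mul_mem (S.cm _ (inv_mem hg) _ (inv_mem (dB _ q.out.2))) e'
      have h3 := dd q.out q'.out
      show ((q.out : G)⁻¹ * q'.out)⁻¹ * τ ((q.out : G)⁻¹ * q'.out) ∈ Yt F t l
      rw [h3]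
      convert h4 using 1
      group
    rw [← idx _ _ AB, pow_two, mul_assoc, mul_comm (Nat.card A), ← mul_assoc]
    refine Nat.mul_le_mul_right _ ?_
    rw [← idx _ _ YA]
    exact Nat.mul_le_mul_right _ hq

end Cfsg.Agent.RC
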