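import Cfsg.Agent.RC.Df2
import Cfsg.Agent.RC.B2a

/-! RC/B2b (S3860): the case `|Y| = 2`. -/

set_option autoImplicit false

namespace Cfsg.Agent.RC

open Subgroup

universe u

variable {G : Type u} [Group G] [Finite G]

variable {F : G → Subgroup G} {t l : G} {τ : MulAut G}

namespace B2b

omit [Group G] in
theorem cnt (S : Set G) {p : ℕ} (hp : p.Prime) (f : G → G) (hf : ∀ x ∈ S, f x ∈ S) (h : ∀ x ∈ S, f^[p] x = x) :
    S.ncard ≡ {x | x ∈ S ∧ f x = x}.ncard [MOD p] := by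
  classical
  have := Fact.mk hp
  have := Fintype.ofFinite S
  let g : Function.End S := fun x => ⟨f x, hf x x.2⟩
  have hg : ∀ n (x : S), ((g ^ n) x : G) = f^[n] x := by
    intro n
    induction n with
    | zero => intro x; rfl
    | succ n ih => intro x; rw [pow_succ, Function.iterate_succ_apply]; exact ih (g x)
  have h1 : g ^ p ^ 1 = 1 := by
    funext x
    apply Subtype.ext
    rw [pow_one, hg, h x x.2]
    rfl
  have h2 := Equiv.Perm.card_fixedPoints_modEq h1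
  rw [← Nat.card_eq_fintype_card, ← Nat.card_eq_fintype_card] at h2
  let e : g.fixedPoints ≃ {x | x ∈ S ∧ f x = x} :=
    { toFun := fun x => ⟨x.1.1, x.1.2, congrArg Subtype.val x.2⟩
      invFun := fun x => ⟨⟨x.1, x.2.1⟩, Subtype.ext x.2.2⟩
      left_inv := fun _ => rfl
      right_inv := fun _ => rfl }
  rw [Nat.card_congr e] at h2
  exact h2

omit [Finite G] in
theorem iter (l : G) (n : ℕ) (x : G) : (fun x => l * x * l⁻¹)^[n] x = l ^ n * x * (l ^ n)⁻¹ := by
  induction n with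
  | zero => simp
  | succ n ih => rw [Function.iterate_succ_apply', ih, pow_succ']; group

theorem cntl (hp : (orderOf l).Prime) (S : Set G) (hf : ∀ x ∈ S, l * x * l⁻¹ ∈ S) :
    S.ncard ≡ {x | x ∈ S ∧ l * x * l⁻¹ = x}.ncard [MOD orderOf l] :=
  cnt S hp (fun x => l * x * l⁻¹) hf fun x _ => by rw [iter, pow_orderOf_eq_one]; group

theorem two {Y : Subgroup G} (h : Nat.card Y = 2) (ht : t ∈ Y) (t1 : t ≠ 1) {y : G} (hy : y ∈ Y) : y = 1 ∨ y = t := by
  by_contra hc
  push Not at hc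
  obtain ⟨z, -, hz⟩ := (Nat.card_eq_two_iff' (1 : Y)).1 h
  have h1 := hz ⟨t, ht⟩ fun e => t1 (congrArg Subtype.val e)
  have h2 := hz ⟨y, hy⟩ fun e => hc.1 (congrArg Subtype.val e)
  exact hc.2 (congrArg Subtype.val (h2.trans h1.symm))

theorem main (C : C1 F) (P : Pr t l) (h : Nat.card (Yt F t l) = 2) :
    (∀ b ∈ Bt F t l, b ∉ Yt F t l → b * b = t) ∧ orderOf l = 3 ∧ Nat.card (Bt F t l) = 8 := by
  have := Fact.mk Nat.prime_two
  have S := b1 C P
  obtain ⟨τ, T⟩ := C.tau t P.inv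
  obtain ⟨A, X⟩ := b2a C P T
  have t1 : t ≠ 1 := fun e => by have := P.inv; rw [e, orderOf_one] at this; omega
  have tt : t * t = 1 := S.el t S.tY
  have hY : ∀ y ∈ Yt F t l, y = 1 ∨ y = t := fun y hy => two h S.tY t1 hy
  have AB : A ≤ Bt F t l := fun a ha => ((X.mem a).1 ha).1
  have BF := B_le C.toC0 P
  have Yc : ∀ y ∈ Yt F t l, ∀ b ∈ Bt F t l, b * y = y * b := fun y hy b hb => ((S.cz y).1 hy).2 b hb
  have lA : ∀ a ∈ A, l * a * l⁻¹ ∈ A := fun a ha => (mem_normalizer_iff.1 X.nl a).1 ha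
  have fx : ∀ a ∈ A, l * a * l⁻¹ = a ↔ a ∈ Yt F t l := fun a ha =>
    ⟨fun e => ⟨AB ha, mem_cen.2 (mul_inv_eq_iff_eq_mul.1 e).symm⟩,
      fun e => mul_inv_eq_iff_eq_mul.2 (mem_cen.1 e.2).symm⟩
  have hY2 : (Yt F t l : Set G).ncard = 2 := h
  -- the order of `A`
  have c1 := cntl P.pr (A : Set G) lA
  rw [show {x | x ∈ (A : Set G) ∧ l * x * l⁻¹ = x} = (Yt F t l : Set G) from
    Set.ext fun x => ⟨fun k => (fx x k.1).1 k.2, fun k => ⟨X.lt.le k, (fx x (X.lt.le k)).2 k⟩⟩, hY2] at c1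
  obtain ⟨n, hn⟩ := IsPGroup.iff_card.1 ((C.p2 t P.inv).to_le (AB.trans BF))
  have hA : (A : Set G).ncard = 2 ^ n := hn
  have hlt : 2 < (A : Set G).ncard := hY2 ▸ Set.ncard_lt_ncard (SetLike.coe_ssubset_coe.2 X.lt) (Set.toFinite _)
  have h16 : (A : Set G).ncard ≤ 16 := X.c16
  have hr : orderOf l ∣ (A : Set G).ncard - 2 := (Nat.modEq_iff_dvd' hlt.le).1 c1.symm
  have r2 : orderOf l ≠ 2 := fun e => by have := P.od; rw [e] at this; exact absurd this (by decide)
  have hc : (A : Set G).ncard = 8 ∧ orderOf l = 3 ∨ (A : Set G).ncard = 16 ∧ orderOf l = 7 := by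
    have n5 : n < 5 := by
      by_contra k
      have := Nat.pow_le_pow_right (n := 2) (by norm_num) (not_lt.1 k)
      omega
    rw [hA] at hlt hr ⊢
    interval_cases n
    · omega
    · omega
    · exact (r2 ((Nat.prime_dvd_prime_iff_eq P.pr Nat.prime_two).1 hr)).elim
    · rcases (Nat.Prime.dvd_mul P.pr (m := 2) (n := 3)).1 hr with k | k
      · exact (r2 ((Nat.prime_dvd_prime_iff_eq P.pr Nat.prime_two).1 k)).elim
      · exact .inl ⟨rfl, (Nat.prime_dvd_prime_iff_eq P.pr Nat.prime_three).1 k⟩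
    · rcases (Nat.Prime.dvd_mul P.pr (m := 2) (n := 7)).1 hr with k | k
      · exact (r2 ((Nat.prime_dvd_prime_iff_eq P.pr Nat.prime_two).1 k)).elim
      · exact .inr ⟨rfl, (Nat.prime_dvd_prime_iff_eq P.pr (by norm_num)).1 k⟩
  -- the elements of square one
  let W : Set G := {a | a ∈ A ∧ a * a = 1}
  have YW : (Yt F t l : Set G) ⊆ W := fun y hy => ⟨X.lt.le hy, S.el y hy⟩
  have WA : W ⊆ A := fun a ha => ha.1
  have c2 := cntl P.pr W fun a ha => ⟨lA a ha.1, by rw [conj_mul, ha.2]; group⟩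
  rw [show {x | x ∈ W ∧ l * x * l⁻¹ = x} = (Yt F t l : Set G) from
    Set.ext fun x => ⟨fun k => (fx x k.1.1).1 k.2, fun k => ⟨YW k, (fx x (X.lt.le k)).2 k⟩⟩, hY2] at c2
  have c3 := cnt W Nat.prime_two (fun x => x * t) (fun a ha => ⟨mul_mem ha.1 (X.lt.le S.tY), by
      calc a * t * (a * t) = a * (t * a) * t := by group
        _ = a * a * (t * t) := by rw [← Yc t S.tY a (AB ha.1)]; group
        _ = 1 := by rw [ha.2, tt, one_mul]⟩)
    (fun a _ => by change a * t * t = a; rw [mul_assoc, tt, mul_one])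
  rw [show {x | x ∈ W ∧ x * t = x} = ∅ from
    Set.eq_empty_of_forall_notMem fun x k => t1 (mul_eq_left.1 k.2), Set.ncard_empty] at c3
  have w1 := Set.ncard_le_ncard WA (Set.toFinite _)
  have w2 : W.ncard ≠ (A : Set G).ncard := fun e => by
    have e1 := Set.eq_of_subset_of_ncard_le WA e.ge (Set.toFinite _)
    have : (A : Set G).ncard ≤ 4 := e4 T A (AB.trans BF) (fun a ha => (e1.ge ha).2) X.tau
    omega
  have w3 : W.ncard = 2 := by
    unfold Nat.ModEq at c2 c3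
    rcases hc with ⟨k1, k2⟩ | ⟨k1, k2⟩ <;> rw [k2] at c2 <;> omega
  have e1 := Set.eq_of_subset_of_ncard_le YW (w3.trans hY2.symm).le (Set.toFinite _)
  have sq : ∀ a ∈ A, a ∉ Yt F t l → a * a = t := fun a ha k =>
    (hY _ (S.sq a (AB ha))).resolve_left fun e => k (e1.ge (show a ∈ W from ⟨ha, e⟩))
  have h8 : (A : Set G).ncard ≤ 8 := u8 A t (fun a ha => by
      by_cases k : a ∈ Yt F t l
      · exact (hY a k).imp_right .inl
      · exact .inr (.inr (sq a ha k))) P.inv (AB.trans (BF.trans (tF C.toC0 P.inv).2))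
  obtain ⟨k8, k3⟩ := hc.resolve_right fun k => by omega
  -- `A = B`
  have BA : Bt F t l ≤ A := by
    intro b hb
    by_contra hn
    have zA := X.im b hb
    have zY : b⁻¹ * τ b ∉ Yt F t l := fun k => hn ((X.mem b).2 ⟨hb, k⟩)
    have τb := (Btau C.toC0 P T b).2 hb
    have cm : ∀ a ∈ A, a * (b⁻¹ * τ b) * a⁻¹ = b⁻¹ * τ b := fun a ha => by
      have h1 := S.cm a (AB ha) b hb
      have h2 : τ (a * b * a⁻¹ * b⁻¹) = a * b * a⁻¹ * b⁻¹ := by
        rcases hY _ h1 with k | k <;> rw [k]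
        exacts [map_one τ, T.fix]
      have h3 := Yc _ ((X.mem a).1 ha).2 _ τb
      simp only [map_mul, map_inv] at h2
      have h4 : a * τ b * a⁻¹ = τ a * τ b * (τ a)⁻¹ := by
        calc a * τ b * a⁻¹ = a * (τ b * (a⁻¹ * τ a)) * (τ a)⁻¹ := by group
          _ = _ := by rw [h3]; group
      calc a * (b⁻¹ * τ b) * a⁻¹ = (a * b * a⁻¹)⁻¹ * (a * τ b * a⁻¹) := by group
        _ = (a * b * a⁻¹)⁻¹ * (τ a * τ b * (τ a)⁻¹ * (τ b)⁻¹) * τ b := by rw [h4]; group
        _ = _ := by rw [h2]; group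
    generalize b⁻¹ * τ b = z at zA zY cm
    have aA := lA z zA
    have aY : l * z * l⁻¹ ∉ Yt F t l := fun k => zY (by
      have := (fx _ aA).2 k
      rw [← mul_left_cancel (mul_right_cancel this)]
      exact k)
    have l1 : l ^ 1 ≠ 1 := fun e => P.pr.one_lt.ne' (by rw [← pow_one l, e, orderOf_one])
    have azY : l * z * l⁻¹ * z ∉ Yt F t l := fun k => zY (fpf C P 1 l1 z (AB zA) (by
      have := mul_mem k (inv_mem (S.sq z (AB zA)))
      rwa [show l * z * l⁻¹ * z * (z * z)⁻¹ = l ^ 1 * z * (l ^ 1)⁻¹ * z⁻¹ by group] at this))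
    have s1 := sq _ aA aY
    have s2 := sq _ zA zY
    have s3 := sq _ (mul_mem aA zA) azY
    have s4 := cm _ aA
    generalize l * z * l⁻¹ = a at s1 s3 s4
    apply t1
    calc t = a * (a * z * a⁻¹) * a * z := by rw [s4, ← s3]; group
      _ = a * a * (z * z) := by group
      _ = 1 := by rw [s1, s2, tt]
  exact ⟨fun b hb => sq b (BA hb), k3, by rw [← le_antisymm AB BA]; exact k8⟩

end B2b

theorem b2b (C : C1 F) (P : Pr t l) (h : Nat.card (Yt F t l) = 2) :
    ∀ b ∈ Bt F t l, b ∉ Yt F t l → b * b = t := (B2b.main C P h).1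

theorem b2b' (C : C1 F) (P : Pr t l) (h : Nat.card (Yt F t l) = 2) : orderOf l = 3 ∧ Nat.card (Bt F t l) = 8 :=
  (B2b.main C P h).2

end Cfsg.Agent.RC
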