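import Cfsg.Agent.RC.Df2
import Cfsg.Agent.RC.B2a

/-! RC/B2c (S3860): the case of a centre of order four. -/

set_option autoImplicit false

namespace Cfsg.Agent.RC

open Subgroup

universe u

variable {G : Type u} [Group G] [Finite G]

variable {F : G → Subgroup G} {t l : G} {τ : MulAut G}

namespace B2c

theorem md (hp : (orderOf l).Prime) {A : Subgroup G} (hn : l ∈ nor A) :
    Nat.card A ≡ Nat.card ↥(A ⊓ cen l) [MOD orderOf l] := by
  haveI := Fact.mk hp
  let φ : zpowers l →* MulAut A := (normalizerMonoidHom A).comp (inclusion (zpowers_le.2 hn))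
  letI : MulAction (zpowers l) A := MulAction.compHom A φ
  have h1 : IsPGroup (orderOf l) (zpowers l) := IsPGroup.of_card (n := 1) (by rw [Nat.card_zpowers, pow_one])
  have h2 := h1.card_modEq_card_fixedPoints A
  have sm : ∀ (g : zpowers l) (a : A), ((g • a : A) : G) = g * a * (g : G)⁻¹ := fun g a => rfl
  have e : MulAction.fixedPoints (zpowers l) A ≃ ↥(A ⊓ cen l) :=
    { toFun := fun a => ⟨a.1, mem_inf.2 ⟨a.1.2, mem_cen.2 (by
        have := congrArg Subtype.val (a.2 ⟨l, mem_zpowers l⟩)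
        rw [sm, mul_inv_eq_iff_eq_mul] at this
        exact this.symm)⟩⟩
      invFun := fun a => ⟨⟨a.1, (mem_inf.1 a.2).1⟩, fun g => Subtype.ext (by
        rw [sm, mul_inv_eq_iff_eq_mul]
        obtain ⟨_, k, rfl⟩ := g
        exact ((Commute.zpow_right (mem_cen.1 (mem_inf.1 a.2).2) k).symm : _))⟩
      left_inv := fun _ => rfl
      right_inv := fun _ => rfl }
  rwa [Nat.card_congr e] at h2

theorem no16 {B Y : Subgroup G} (cz : ∀ b, b ∈ Y ↔ b ∈ B ∧ b ∈ Cs B) (el : ∀ y ∈ Y, y * y = 1)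
    (cm : ∀ a ∈ B, ∀ b ∈ B, a * b * a⁻¹ * b⁻¹ ∈ Y) (dr : Y ≤ ⁅B, B⁆) (h4 : Nat.card Y = 4) : Nat.card B ≠ 16 := by
  intro h16
  have YB : Y ≤ B := fun y hy => ((cz y).1 hy).1
  have zc : ∀ y ∈ Y, ∀ b ∈ B, b * y = y * b := fun y hy => ((cz y).1 hy).2
  obtain ⟨a, ha, b, hb, ab⟩ : ∃ a ∈ B, ∃ b ∈ B, a * b ≠ b * a := by
    by_contra hn
    have : B ≤ Y := fun a ha => (cz a).2 ⟨ha, fun b hb => by
      by_contra k
      exact hn ⟨b, hb, a, ha, k⟩⟩
    have := card_le_of_le this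
    omega
  have a0 : a ∉ Y := fun k => ab (zc a k b hb).symm
  have b0 : b ∉ Y := fun k => ab (zc b k a ha)
  have ab1 : a * b ∉ Y := fun k => ab (by
    have := zc _ k a ha
    rw [mul_assoc] at this
    exact mul_left_cancel this)
  have ab2 : a⁻¹ * b ∉ Y := fun k => ab (by
    have := zc _ k a ha
    rw [mul_inv_cancel_left, mul_assoc, eq_inv_mul_iff_mul_eq] at this
    exact this)
  have ab3 : a⁻¹ * (a * b) ∉ Y := by rwa [inv_mul_cancel_left]
  have ab4 : b⁻¹ * (a * b) ∉ Y := fun k => a0 (by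
    have := zc _ k b hb
    rw [mul_inv_cancel_left] at this
    have e := mul_right_cancel this
    rwa [e])
  let r : Fin 4 → G := ![1, a, b, a * b]
  have rB : ∀ i, r i ∈ B := fun i => by
    fin_cases i
    exacts [one_mem _, ha, hb, mul_mem ha hb]
  have ri : ∀ i j, (r i)⁻¹ * r j ∈ Y → i = j := by
    have sy : ∀ {x z : G}, x⁻¹ * z ∉ Y → z⁻¹ * x ∉ Y := fun h k => h (by simpa using inv_mem k)
    have a1 : (1 : G)⁻¹ * a ∉ Y := by simpa using a0
    have b1 : (1 : G)⁻¹ * b ∉ Y := by simpa using b0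
    have c1 : (1 : G)⁻¹ * (a * b) ∉ Y := by simpa using ab1
    intro i j h
    fin_cases i <;> fin_cases j <;> first
      | rfl
      | exact absurd h a1
      | exact absurd h b1
      | exact absurd h c1
      | exact absurd h ab2
      | exact absurd h ab3
      | exact absurd h ab4
      | exact absurd h (sy a1)
      | exact absurd h (sy b1)
      | exact absurd h (sy c1)
      | exact absurd h (sy ab2)
      | exact absurd h (sy ab3)
      | exact absurd h (sy ab4)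
  let f : Fin 4 × Y → B := fun x => ⟨r x.1 * x.2, mul_mem (rB _) (YB x.2.2)⟩
  have fi : Function.Injective f := by
    rintro ⟨i, y⟩ ⟨j, z⟩ e
    have e' : r i * y = r j * z := congrArg Subtype.val e
    obtain rfl : i = j := ri i j (by
      rw [show (r i)⁻¹ * r j = y * (z : G)⁻¹ by
        rw [inv_mul_eq_iff_eq_mul, ← mul_assoc, e', mul_inv_cancel_right]]
      exact mul_mem y.2 (inv_mem z.2))
    rw [Subtype.ext (mul_left_cancel e')]
  have fs := ((Nat.bijective_iff_injective_and_card f).2 ⟨fi, by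
    rw [Nat.card_prod, h4, h16, Nat.card_eq_fintype_card, Fintype.card_fin]⟩).2
  have key : ∀ p : G → Prop, p a → p b → (∀ y ∈ Y, p y) → (∀ x ∈ B, ∀ z ∈ B, p x → p z → p (x * z)) →
      ∀ g ∈ B, p g := by
    intro p pa pb pY pm g hg
    obtain ⟨⟨i, y⟩, e⟩ := fs ⟨g, hg⟩
    have e' : r i * y = g := congrArg Subtype.val e
    rw [← e']
    refine pm _ (rB i) _ (YB y.2) ?_ (pY _ y.2)
    fin_cases i
    exacts [pY _ (one_mem _), pa, pb, pm _ ha _ hb pa pb]
  let N := zpowers (a * b * a⁻¹ * b⁻¹)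
  let R : G → G → Prop := fun g g' => g * g' * g⁻¹ * g'⁻¹ ∈ N
  have Rs : ∀ {g g'}, R g g' → R g' g := fun h => by
    have := inv_mem h
    simpa only [mul_inv_rev, inv_inv, ← mul_assoc] using this
  have Rc : ∀ {g g'}, g * g' = g' * g → R g g' := fun {g g'} h => by
    change _ ∈ N
    rw [h, mul_inv_cancel_right, mul_inv_cancel]
    exact one_mem _
  have Rm : ∀ g ∈ B, ∀ x ∈ B, ∀ z ∈ B, R g x → R g z → R g (x * z) := fun g hg x hx z hz h1 h2 => by
    have e : g * (x * z) * g⁻¹ * (x * z)⁻¹ = g * x * g⁻¹ * x⁻¹ * (x * (g * z * g⁻¹ * z⁻¹) * x⁻¹) := by group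
    change _ ∈ N
    rw [e, zc _ (cm g hg z hz) x hx, mul_inv_cancel_right]
    exact mul_mem h1 h2
  have Ra := key (R a) (Rc rfl) (mem_zpowers _) (fun y hy => Rc (zc y hy a ha)) (Rm a ha)
  have Rb := key (R b) (Rs (mem_zpowers _)) (Rc rfl) (fun y hy => Rc (zc y hy b hb)) (Rm b hb)
  have le : ⁅B, B⁆ ≤ N := commutator_le.2 fun g hg =>
    key (R g) (Rs (Ra g hg)) (Rs (Rb g hg)) (fun y hy => Rc (zc y hy g hg)) (Rm g hg)
  have c1 := card_le_of_le (dr.trans le)
  rw [h4, Nat.card_zpowers] at c1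
  have c2 : orderOf (a * b * a⁻¹ * b⁻¹) ≤ 2 := orderOf_le_of_pow_eq_one two_pos (by rw [sq, el _ (cm a ha b hb)])
  omega

theorem pw (C : C1 F) (P : Pr t l) {A : Subgroup G} (h : A ≤ Bt F t l) : ∃ n, Nat.card A = 2 ^ n :=
  IsPGroup.iff_card.1 ((C.p2 t P.inv).to_le (h.trans (B_le C.toC0 P)))

theorem ax (C : C1 F) (P : Pr t l) (h : Nat.card (Yt F t l) = 4) {A : Subgroup G} (X : Ax F t l τ A) :
    orderOf l = 3 ∧ Nat.card A = 16 := by
  have AB : A ≤ Bt F t l := fun b hb => ((X.mem b).1 hb).1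
  have e : A ⊓ cen l = Yt F t l := le_antisymm (inf_le_inf_right _ AB) (le_inf X.lt.le inf_le_right)
  have m := md P.pr X.nl
  rw [e, h] at m
  obtain ⟨n, hn⟩ := pw C P AB
  have c1 := X.c16
  have c2 : 4 < Nat.card A := by
    rw [← h]
    by_contra k
    exact X.lt.ne (eq_of_le_of_card_ge X.lt.le (not_lt.1 k))
  rw [hn] at m c1 c2 ⊢
  have n1 : n ≤ 4 := (Nat.pow_le_pow_iff_right one_lt_two).1 c1
  have n2 : 2 < n := (Nat.pow_lt_pow_iff_right one_lt_two).1 c2
  have d := (Nat.modEq_iff_dvd' c2.le).1 m.symm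
  have o := P.od
  have p2 : ¬ orderOf l ∣ 4 := fun k => by
    have := (Nat.prime_dvd_prime_iff_eq P.pr Nat.prime_two).1 (P.pr.dvd_of_dvd_pow (n := 2) k)
    rw [this] at o
    exact absurd o (by decide)
  interval_cases n
  · exact (p2 d).elim
  · exact ⟨(Nat.prime_dvd_prime_iff_eq P.pr Nat.prime_three).1
      (((Nat.Prime.dvd_mul P.pr (m := 4) (n := 3)).1 d).resolve_left p2), rfl⟩

end B2c

theorem b2c (C : C1 F) (P : Pr t l) (h : Nat.card (Yt F t l) = 4) :
    orderOf l = 3 ∧ Nat.card (Bt F t l) = 64 := by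
  obtain ⟨τ, T⟩ := C.tau t P.inv
  obtain ⟨A, X⟩ := b2a C P T
  obtain ⟨h3, hA⟩ := B2c.ax C P h X
  refine ⟨h3, ?_⟩
  have S := b1 C P
  have c0 := B2c.no16 S.cz S.el S.cm S.dr h
  have c1 := X.sq
  have c2 := card_le_of_le (fun b hb => ((X.mem b).1 hb).1 : A ≤ Bt F t l)
  have m := B2c.md P.pr (nBc C.toC0 P (mem_inf.2 ⟨P.cm, mem_cen.2 rfl⟩))
  obtain ⟨n, hn⟩ := B2c.pw C P le_rfl
  rw [h, h3] at m
  rw [h, hA] at c1
  rw [hA] at c2
  rw [hn] at m c0 c1 c2 ⊢
  have n1 : n ≤ 6 := (Nat.pow_le_pow_iff_right one_lt_two).1 (by omega)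
  have n2 : 4 ≤ n := (Nat.pow_le_pow_iff_right one_lt_two).1 c2
  interval_cases n
  · exact (c0 rfl).elim
  · exact absurd m (by decide)
  · rfl

theorem axc (C : C1 F) (P : Pr t l) (h : Nat.card (Yt F t l) = 4) {A : Subgroup G} (X : Ax F t l τ A) :
    Nat.card A = 16 := (B2c.ax C P h X).2

end Cfsg.Agent.RC
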