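import Cfsg.Agent.RC.Df2
import Cfsg.Agent.S0252
import Cfsg.Agent.S0253

/-! RC/L24 (S3860). Both groups are `A₅`. -/

set_option autoImplicit false

namespace Cfsg.Agent.RC

open Subgroup

universe u

variable {G : Type u} [Group G] [Finite G]

theorem l24 {F : Type} [Field F] [Fintype F] [Fact (Nat.Prime 5)] (h : Fintype.card F = 4) :
    Nonempty (Matrix.ProjectiveSpecialLinearGroup (Fin 2) F ≃* Matrix.ProjectiveSpecialLinearGroup (Fin 2) (ZMod 5)) :=
  ⟨(S0252.result h).some.trans (S0253.result (F := ZMod 5) (ZMod.card 5)).some.symm⟩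

end Cfsg.Agent.RC
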